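import Mathlib
import Cfsg.Agent.Lib.Helper70.BG.S1421Defs
import Cfsg.Agent.Lib.Helper35.BG.Hall

/-!
# S1421 project (helper70), package AsmA

Singular elements lie in the product of the normal abelian Sylow subgroups.  Also the elementary
tools shared with package AsmB.
-/

set_option autoImplicit false

namespace Cfsg.Agent.Lib.Helper29.BG

open Cfsg Subgroup

universe u

section Tools

variable {G : Type u} [Group G]

theorem le_normalizer_of_conj_mem29 {K M : Subgroup G}
    (h : ∀ g ∈ K, ∀ w ∈ M, g * w * g⁻¹ ∈ M) : K ≤ normalizer (M : Set G) := by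
  intro g hg
  rw [Subgroup.mem_normalizer_iff]
  intro w
  constructor
  · exact h g hg w
  · intro hw
    have := h g⁻¹ (K.inv_mem hg) _ hw
    have e : g⁻¹ * (g * w * g⁻¹) * g⁻¹⁻¹ = w := by group
    rwa [e] at this

theorem conj_pow29 (g x : G) (n : ℕ) : (g * x * g⁻¹) ^ n = g * x ^ n * g⁻¹ := by
  induction n with
  | zero => simp
  | succ n ih => rw [pow_succ, ih, pow_succ]; group

theorem pelt_of_mem {P : Subgroup G} {p : ℕ} (hP : IsPGroup p P) {x : G} (hx : x ∈ P) :
    ∃ k : ℕ, x ^ p ^ k = 1 := by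
  obtain ⟨k, hk⟩ := hP ⟨x, hx⟩
  exact ⟨k, by simpa using congrArg Subtype.val hk⟩

/-- A `p`-subgroup of `E` containing all `p`-elements of `E` is normalized by `E`. -/
theorem le_normalizer_of_all_pelts {E P : Subgroup G} {p : ℕ} (hPE : P ≤ E) (hP : IsPGroup p P)
    (hall : ∀ e ∈ E, (∃ k : ℕ, e ^ p ^ k = 1) → e ∈ P) : E ≤ normalizer (P : Set G) := by
  apply le_normalizer_of_conj_mem29
  intro g hg w hw
  obtain ⟨k, hk⟩ := pelt_of_mem hP hw
  exact hall _ (E.mul_mem (E.mul_mem hg (hPE hw)) (E.inv_mem hg))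
    ⟨k, by rw [conj_pow29, hk]; group⟩

/-- An element that is a `p`-element and a `q`-element for distinct primes is trivial. -/
theorem eq_one_of_pelt_of_qelt {p q : ℕ} (hp : p.Prime) (hq : q.Prime) (hpq : p ≠ q) {x : G}
    (h1 : ∃ k : ℕ, x ^ p ^ k = 1) (h2 : ∃ k : ℕ, x ^ q ^ k = 1) : x = 1 := by
  obtain ⟨k, hk⟩ := h1
  obtain ⟨l, hl⟩ := h2
  have d1 : orderOf x ∣ p ^ k := orderOf_dvd_of_pow_eq_one hk
  have d2 : orderOf x ∣ q ^ l := orderOf_dvd_of_pow_eq_one hl
  have hc : (p ^ k).Coprime (q ^ l) :=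
    Nat.Coprime.pow k l ((Nat.coprime_primes hp hq).mpr hpq)
  have : orderOf x = 1 := Nat.eq_one_of_dvd_coprimes hc d1 d2
  exact orderOf_eq_one_iff.mp this

/-- An element of order prime to `p` that is a `p`-element is trivial. -/
theorem eq_one_of_pelt_of_coprime {p : ℕ} {x : G} {m : ℕ} (hm : m.Coprime p)
    (h1 : ∃ k : ℕ, x ^ p ^ k = 1) (h2 : x ^ m = 1) : x = 1 := by
  obtain ⟨k, hk⟩ := h1
  have d1 : orderOf x ∣ p ^ k := orderOf_dvd_of_pow_eq_one hk
  have d2 : orderOf x ∣ m := orderOf_dvd_of_pow_eq_one h2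
  have hc : (p ^ k).Coprime m := Nat.Coprime.pow_left k hm.symm
  have : orderOf x = 1 := Nat.eq_one_of_dvd_coprimes hc d1 d2
  exact orderOf_eq_one_iff.mp this

/-- An element lies in a subgroup as soon as its prime-power parts do. -/
theorem mem_of_prime_parts {A : Subgroup G} : ∀ (n : ℕ), 0 < n → ∀ x : G, x ^ n = 1 →
    (∀ p : ℕ, p.Prime → p ∣ n → ∀ y ∈ Subgroup.zpowers x, (∃ k : ℕ, y ^ p ^ k = 1) → y ∈ A) →
    x ∈ A := by
  intro n
  induction n using Nat.strong_induction_on with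
  | _ n ih =>
    intro hn x hx h
    by_cases hn1 : n = 1
    · subst hn1
      rw [pow_one] at hx
      rw [hx]; exact A.one_mem
    set p := n.minFac with hpdef
    have hp : p.Prime := Nat.minFac_prime hn1
    have hpn : p ∣ n := Nat.minFac_dvd n
    set a := n.factorization p with hadef
    set m := n / p ^ a with hmdef
    have hnm : p ^ a * m = n := Nat.ordProj_mul_ordCompl_eq_self n p
    have hcop : (p ^ a).Coprime m :=
      Nat.Coprime.pow_left a (Nat.coprime_ordCompl hp hn.ne')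
    have ha : a ≠ 0 := by
      rw [hadef]
      exact (Nat.Prime.factorization_pos_of_dvd hp hn.ne' hpn).ne'
    have hmpos : 0 < m := by
      rcases Nat.eq_zero_or_pos m with h0 | h0
      · rw [h0, mul_zero] at hnm; omega
      · exact h0
    have hmn : m < n := by
      have h2 : 2 ≤ p ^ a := le_trans hp.two_le (Nat.le_self_pow ha p)
      nlinarith
    -- the `p'`-part
    have hx1 : x ^ p ^ a ∈ A := by
      apply ih m hmn hmpos
      · rw [← pow_mul, hnm, hx]
      · intro q hq hqm y hy hyk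
        apply h q hq (hqm.trans (Dvd.intro_left _ hnm)) y _ hyk
        exact (Subgroup.zpowers_le.mpr (Subgroup.pow_mem _ (Subgroup.mem_zpowers x) _)) hy
    -- the `p`-part
    have hx2 : x ^ m ∈ A := by
      apply h p hp hpn _ (Subgroup.pow_mem _ (Subgroup.mem_zpowers x) _)
      exact ⟨a, by rw [← pow_mul, mul_comm, hnm, hx]⟩
    have hb : (1 : ℤ) = ((p ^ a : ℕ) : ℤ) * Nat.gcdA (p ^ a) m + ((m : ℕ) : ℤ) * Nat.gcdB (p ^ a) m := by
      have := Nat.gcd_eq_gcd_ab (p ^ a) m
      rw [hcop.gcd_eq_one] at this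
      simpa using this
    have hxe : x = (x ^ p ^ a) ^ (Nat.gcdA (p ^ a) m) * (x ^ m) ^ (Nat.gcdB (p ^ a) m) := by
      rw [← zpow_natCast x (p ^ a), ← zpow_natCast x m, ← zpow_mul, ← zpow_mul, ← zpow_add, ← hb,
        zpow_one]
    rw [hxe]
    exact A.mul_mem (A.zpow_mem hx1 _) (A.zpow_mem hx2 _)

end Tools

/-- **Package AsmA.** -/
theorem lemAsmA : Cfsg.Agent.Lib.Helper70.BG21.LemAsmA.{u} := by
  intro G _ _ E R T h1 h2
  classical
  let S : Set G := {e | e ∈ E ∧ ∃ p ∈ T, p.Prime ∧ ∃ k : ℕ, e ^ p ^ k = 1}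
  -- elements of `S` commute pairwise
  have hS : ∀ a ∈ S, ∀ b ∈ S, a * b = b * a := by
    rintro a ⟨haE, p, hpT, hp, k, hk⟩ b ⟨hbE, q, hqT, hq, l, hl⟩
    by_cases ha1 : a = 1
    · rw [ha1]; simp
    by_cases hb1 : b = 1
    · rw [hb1]; simp
    have hpE : p ∣ Nat.card E := by
      have d1 : orderOf a ∣ p ^ k := orderOf_dvd_of_pow_eq_one hk
      obtain ⟨j, -, hj⟩ := (Nat.dvd_prime_pow hp).mp d1
      have hj0 : j ≠ 0 := by
        rintro rfl
        rw [pow_zero] at hj
        exact ha1 (orderOf_eq_one_iff.mp hj)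
      have : p ∣ orderOf a := by rw [hj]; exact dvd_pow_self p hj0
      exact this.trans (Subgroup.orderOf_dvd_natCard E haE)
    have hqE : q ∣ Nat.card E := by
      have d1 : orderOf b ∣ q ^ l := orderOf_dvd_of_pow_eq_one hl
      obtain ⟨j, -, hj⟩ := (Nat.dvd_prime_pow hq).mp d1
      have hj0 : j ≠ 0 := by
        rintro rfl
        rw [pow_zero] at hj
        exact hb1 (orderOf_eq_one_iff.mp hj)
      have : q ∣ orderOf b := by rw [hj]; exact dvd_pow_self q hj0
      exact this.trans (Subgroup.orderOf_dvd_natCard E hbE)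
    obtain ⟨P, hPE, hPp, hPc, hPall⟩ := h2 p hpT hp hpE
    obtain ⟨Q, hQE, hQq, hQc, hQall⟩ := h2 q hqT hq hqE
    have haP : a ∈ P := hPall a haE ⟨k, hk⟩
    have hbQ : b ∈ Q := hQall b hbE ⟨l, hl⟩
    by_cases hpq : p = q
    · subst hpq
      have hbP : b ∈ P := hPall b hbE ⟨l, hl⟩
      exact (Cfsg.Agent.Lib.Helper35.BG.isMulCommutative_subgroup_iff.mp hPc) a haP b hbP
    · have hEP := le_normalizer_of_all_pelts hPE hPp hPall
      have hEQ := le_normalizer_of_all_pelts hQE hQq hQall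
      have c1 : a * b * a⁻¹ * b⁻¹ ∈ P := by
        have h3 : b * a⁻¹ * b⁻¹ ∈ P :=
          (Subgroup.mem_normalizer_iff.mp (hEP hbE) a⁻¹).mp (P.inv_mem haP)
        have e : a * b * a⁻¹ * b⁻¹ = a * (b * a⁻¹ * b⁻¹) := by group
        rw [e]; exact P.mul_mem haP h3
      have c2 : a * b * a⁻¹ * b⁻¹ ∈ Q := by
        have h3 : a * b * a⁻¹ ∈ Q := (Subgroup.mem_normalizer_iff.mp (hEQ haE) b).mp hbQ
        exact Q.mul_mem h3 (Q.inv_mem hbQ)
      have c3 : a * b * a⁻¹ * b⁻¹ = 1 :=
        eq_one_of_pelt_of_qelt hp hq hpq (pelt_of_mem hPp c1) (pelt_of_mem hQq c2)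
      calc a * b = (a * b * a⁻¹ * b⁻¹) * (b * a) := by group
        _ = b * a := by rw [c3, one_mul]
  refine ⟨Subgroup.closure S, ?_, ?_, ?_, ?_⟩
  · rw [Subgroup.closure_le]
    intro e he
    exact he.1
  · apply le_normalizer_of_conj_mem29
    intro g hg w hw
    induction hw using Subgroup.closure_induction with
    | mem x hx =>
      apply Subgroup.subset_closure
      obtain ⟨hxE, p, hpT, hp, k, hk⟩ := hx
      exact ⟨E.mul_mem (E.mul_mem hg hxE) (E.inv_mem hg), p, hpT, hp, k,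
        by rw [conj_pow29, hk]; group⟩
    | one =>
      have e : g * 1 * g⁻¹ = 1 := by group
      rw [e]; exact Subgroup.one_mem _
    | mul x y _ _ hx hy =>
      have e : g * (x * y) * g⁻¹ = (g * x * g⁻¹) * (g * y * g⁻¹) := by group
      rw [e]; exact Subgroup.mul_mem _ hx hy
    | inv x _ hx =>
      have e : g * x⁻¹ * g⁻¹ = (g * x * g⁻¹)⁻¹ := by group
      rw [e]; exact Subgroup.inv_mem _ hx
  · rw [Cfsg.Agent.Lib.Helper35.BG.isMulCommutative_subgroup_iff]
    have h3 : Subgroup.closure S ≤ Subgroup.centralizer ((Subgroup.closure S : Subgroup G) : Set G) := by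
      rw [Subgroup.centralizer_closure, Subgroup.closure_le]
      intro a ha
      rw [SetLike.mem_coe, Subgroup.mem_centralizer_iff]
      intro b hb
      exact hS b hb a ha
    intro a ha b hb
    exact (Subgroup.mem_centralizer_iff.mp (h3 hb) a ha)
  · intro e he hne hR
    apply mem_of_prime_parts (orderOf e) (orderOf_pos e) e (pow_orderOf_eq_one e)
    intro p hp hpd y hy hyk
    apply Subgroup.subset_closure
    exact ⟨(Subgroup.zpowers_le.mpr he) hy, p, h1 e he hne hR p hp hpd, hp, hyk⟩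

end Cfsg.Agent.Lib.Helper29.BG
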